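import Mathlib
import Cfsg.Agent.Lib.SemP.Defs2

/-!
# Commuting elements of prime order in almost simple groups of Lie type: the interfaces (plans/SEMQ.md)
-/

set_option autoImplicit false

namespace CfsgLib.SemQ

open Cfsg Subgroup CfsgLib.RGD CfsgLib.Twist CfsgLib.LieAll CfsgLib.Semi CfsgLib.KInv CfsgLib.SemP

section Pure

variable (p q : ℕ) {K : Type*} [Group K]

/-- `H` has an element of order `p` -/
def El (H : Subgroup K) : Prop := ∃ a ∈ H, a ≠ 1 ∧ a ^ p = 1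

/-- `H` has commuting elements of the orders `p` and `q` -/
def Ad (H : Subgroup K) : Prop := ∃ a ∈ H, ∃ b ∈ H, Commute a b ∧ a ≠ 1 ∧ a ^ p = 1 ∧ b ≠ 1 ∧ b ^ q = 1

/-- `H` has an automorphism of order `p` which fixes an element of order `q` -/
def Fx (H : Subgroup (MulAut K)) : Prop := ∃ e ∈ H, e ≠ 1 ∧ e ^ p = 1 ∧ El q (fixedSubgroup e)

/-- the image in the outer automorphism group -/
abbrev bar (H : Subgroup (MulAut K)) : Subgroup (Out K) := H.map (QuotientGroup.mk' (Inn K))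

variable (K) in
/-- the conclusion of S4232 -/
def PQ : Prop :=
  ∀ H : Subgroup (MulAut K), Inn K ≤ H → ∀ p q : ℕ, p.Prime → q.Prime → p ≠ q → ¬ Ab p H → ¬ Ab q H → Ad p q H

/-- the norm of an endomorphism -/
def Nm {Y : Type*} [AddCommGroup Y] (V : Module.End ℤ Y) (p : ℕ) : Module.End ℤ Y := ∑ i ∈ Finset.range p, V ^ i

end Pure

variable {ι κ B : Type} [Fintype κ] [DecidableEq κ]

section Root

variable (Φ : RootSys ι κ)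

/-- strongly orthogonal roots -/
def SO (s t : ι) : Prop := ∀ k, ¬ Φ.IsSum s t k ∧ ¬ Φ.IsSum s (Φ.neg t) k

/-- the orbit of `γ` consists of positive, strongly orthogonal roots -/
def Orb (ρ : Equiv.Perm ι) (γ : ι) : Prop :=
  ∀ j : ℕ, Φ.Pos ((ρ ^ j) γ) ∧ ((ρ ^ j) γ ≠ γ → SO Φ γ ((ρ ^ j) γ))

/-- `m` strongly orthogonal roots which are permuted arbitrarily by `W ρ` -/
def Fm (ρ : Equiv.Perm ι) (m : ℕ) : Prop :=
  ∃ γ : Fin m → ι, Function.Injective γ ∧ (∀ i, Φ.Pos (γ i)) ∧ (∀ i j, i ≠ j → SO Φ (γ i) (γ j)) ∧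
    ∀ π : Equiv.Perm (Fin m), ∃ w ∈ Φ.W, ∀ i, w (ρ (γ i)) = γ (π i)

/-- a chain of `N` nodes on which some `w ρ` is `± 1` -/
def Ch (ρ : Equiv.Perm ι) (N : ℕ) : Prop :=
  ∃ c : Fin N → κ, (∀ i j, Φ.A (c i) (c j) = if i = j then 2 else if i.1 + 1 = j.1 ∨ j.1 + 1 = i.1 then -1 else 0) ∧
    ∃ w ∈ Φ.W, (∀ i, w (ρ (Φ.simple (c i))) = Φ.simple (c i)) ∨
      ∀ i, w (ρ (Φ.simple (c i))) = Φ.neg (Φ.simple (c i))

/-- the Weyl group has an element of order `p` -/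
def WE (p : ℕ) : Prop := ∃ v ∈ Φ.W, v ≠ 1 ∧ v ^ p = 1

/-- type `A₂`, with `w ρ = ± 1` and `q ≡ ± 1` modulo three -/
def A2E (ρ : Equiv.Perm ι) (q : ℕ) : Prop :=
  ∃ i j : κ, (∀ l, l = i ∨ l = j) ∧ Φ.A i j = -1 ∧ Φ.A j i = -1 ∧
    ∃ w ∈ Φ.W, (∀ s, w (ρ s) = s) ∧ q % 3 = 1 ∨ (∀ s, w (ρ s) = Φ.neg s) ∧ q % 3 = 2

variable {Φ}

/-- what is used about a family; `|Out K|` divides `g f` -/
structure Dat (r : ℕ) (K : Type*) [Group K] (σ : Sym Φ B) (a : κ → ℕ) (d f g : ℕ) : Prop where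
  out : Nat.card (Out K) ∣ g * f
  d3 : d ≤ 3
  ha : ∀ i, f ≤ d * a i + 1
  ful : Ful σ d
  big : (∀ p, p.Prime → 5 ≤ p → ¬ WE Φ p ∧ ¬ p ∣ g) ∨
    ∃ k m, (∀ i, a i = k) ∧ Fm Φ σ.ρ m ∧ Fintype.card κ ≤ 2 * m + 2 ∧ ∀ p, p.Prime → 5 ≤ p →
      (WE Φ p → p ≤ 2 * m + 1) ∧ (p ∣ g → p ≤ 2 * m + 1 ∧ (r ^ k) ^ 2 ≡ 1 [MOD p])
  three : (∃ γ, Orb Φ σ.ρ γ) ∨ r = 3 ∨ ¬ 3 ∣ Nat.card K ∧ ¬ 3 ∣ g
  low : (∃ s, Φ.ht s = 3) ∨ Fintype.card κ ≤ 2 ∧ d ≤ 2 ∧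
    (3 ∣ g → r = 3 ∨ ¬ 9 ∣ g ∧ ∃ k, (∀ i, a i = k) ∧ A2E Φ σ.ρ (r ^ k))
  one : 2 ≤ Fintype.card κ ∨ d = 1 ∧ g ∣ 2 ∧ Ab r (⊤ : Subgroup K)

end Root

variable {Φ : RootSys ι κ} {Ω : Type*} [Field Ω] {G : Type*} [Group G]

/-- the group generated by the fixed elements of order `r` which belong to the orbit of `± γ` -/
def Gm (S : StSys Φ Ω G) (φ : G →* G) (r : ℕ) (ρ : Equiv.Perm ι) (γ : ι) : Subgroup G :=
  closure {g | g ∈ S.UU {s | ∃ j : ℕ, s = (ρ ^ j) γ ∨ s = Φ.neg ((ρ ^ j) γ)} ∧ φ g = g ∧ g ^ r = 1}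

/-- `K` has a model with the data for S4232 -/
def HasE (r : ℕ) (K : Type*) [Group K] : Prop :=
  ∃ A : AM r, Nonempty (K ≃* A.M) ∧ ∃ g, Dat r K A.T.toSym A.a A.d A.f g

theorem HasM.hasE [Finite ι] {K : Type*} [Group K] {r : ℕ} {σ : Sym Φ B} {a : κ → ℕ} {d f g : ℕ} {P : Prop}
    (h : HasM r K σ a d f P) (hD : Dat r K σ a d f g) : HasE r K := by
  obtain ⟨Ω, G, n, _, _, _, _, _, _, S, T, M, rep, rfl, h1, e, -⟩ := h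
  exact ⟨{ alg := h1, .. }, e, g, hD⟩

end CfsgLib.SemQ
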